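import Cfsg.Agent.H757.OutLarge
import Cfsg.Agent.KFacts.AutLarge

/-!
# S3842, S4094, S4095: outer elements, groups with an absolutely irreducible large extraspecial subgroup
-/

set_option autoImplicit false

namespace Cfsg.Agent.H566.OutR.Large

open Subgroup Cfsg Cfsg.Agent.H509.TwoFrame
open Cfsg.Agent.H472.ComRed (cm cm_eq cm_eq' cm_eq_one cm_mem cm_mem_left map_cm)
open Cfsg.Agent.Co2Type.Quad Cfsg.Agent.KFacts

universe u v

/-- The data of a group with a large extraspecial subgroup, absolutely irreducible. -/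
structure Dat {K : Type*} [Group K] (Q : Subgroup K) (z n₀ x₀ : K) : Prop where
  large : Large Q z
  irr : AutLarge.Irr Q z
  perf : commutator (centralizer ({z} : Set K)) = ⊤
  hin : n₀ * z * n₀⁻¹ ∈ Q
  hnz : n₀ * z * n₀⁻¹ ≠ z
  gen : closure ({c : K | c * z = z * c} ∪ {n₀}) = ⊤
  hx₀ : x₀ ∈ Q
  hx₀1 : x₀ ≠ 1
  hx₀z : x₀ ≠ z
  cen : ∀ y ∈ Q, (∀ c : K, c * z = z * c → AutLarge.Eqz z (c * x₀ * c⁻¹) x₀ → AutLarge.Eqz z (c * y * c⁻¹) y) →
    AutLarge.Eqz z y 1 ∨ AutLarge.Eqz z y x₀
  odd : Odd (centralizer ({z} : Set K)).index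

variable {K : Type v} [Group K] {Q : Subgroup K} {z n₀ x₀ : K}

theorem large_comap {L : Type*} [Group L] (h : Large Q z) (e : L ≃* K) :
    Large (Q.comap e.toMonoidHom) (e.symm z) where
  z_mem := by
    show e (e.symm z) ∈ Q
    rw [e.apply_symm_apply]; exact h.z_mem
  z_ne := fun h1 => h.z_ne (by rw [← e.apply_symm_apply z, h1, map_one])
  z_sq := by rw [← map_mul, h.z_sq, map_one]
  comm_z := fun x hx => by
    apply e.injective
    rw [map_mul, map_mul, e.apply_symm_apply]
    exact h.comm_z _ hx
  conj_mem := fun g hg x hx => by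
    show e (g * x * g⁻¹) ∈ Q
    rw [map_mul, map_mul, map_inv]
    apply h.conj_mem _ _ _ hx
    have h1 := congrArg e hg
    rwa [map_mul, map_mul, e.apply_symm_apply] at h1
  sq := fun x hx => by
    rcases h.sq _ hx with h1 | h1
    · left
      apply e.injective
      rw [map_mul, map_one]; exact h1
    · right
      apply e.injective
      rw [map_mul, e.apply_symm_apply]; exact h1
  comm := fun x hx y hy => by
    rcases h.comm _ hx _ hy with h1 | h1
    · left
      apply e.injective
      rw [map_mul, map_mul]; exact h1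
    · right
      apply e.injective
      rw [map_mul, map_mul, map_mul, e.apply_symm_apply]; exact h1
  cent := fun x hx hc => by
    rcases h.cent _ hx (fun y hy => by
      have h1 := hc (e.symm y) (by show e (e.symm y) ∈ Q; rw [e.apply_symm_apply]; exact hy)
      have h2 := congrArg e h1
      rwa [map_mul, map_mul, e.apply_symm_apply] at h2) with h1 | h1
    · left
      apply e.injective
      rw [map_one]; exact h1
    · right
      apply e.injective
      rw [e.apply_symm_apply]; exact h1
  self := fun g hg hc => by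
    show e g ∈ Q
    apply h.self
    · have h1 := congrArg e hg
      rwa [map_mul, map_mul, e.apply_symm_apply] at h1
    · intro x hx
      have h1 := hc (e.symm x) (by show e (e.symm x) ∈ Q; rw [e.apply_symm_apply]; exact hx)
      have h2 := congrArg e h1
      rwa [map_mul, map_mul, e.apply_symm_apply] at h2

theorem irr_comap {L : Type*} [Group L] (h : AutLarge.Irr Q z) (e : L ≃* K) :
    AutLarge.Irr (Q.comap e.toMonoidHom) (e.symm z) := by
  intro N hN hn
  rcases h (N.map e.toMonoidHom) (by
    rintro _ ⟨n, hn', rfl⟩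
    exact hN hn') (by
    rintro g hg _ ⟨n, hn', rfl⟩
    refine ⟨e.symm g * n * (e.symm g)⁻¹, hn _ ?_ _ hn', ?_⟩
    · rw [← map_mul, hg, map_mul]
    · show e (e.symm g * n * (e.symm g)⁻¹) = g * e n * g⁻¹
      rw [map_mul, map_mul, map_inv, e.apply_symm_apply]) with h1 | h1
  · left
    intro n hn'
    rcases h1 (e n) ⟨n, hn', rfl⟩ with h2 | h2
    · left
      apply e.injective
      rw [map_one]; exact h2
    · right
      apply e.injective
      rw [e.apply_symm_apply]; exact h2
  · right
    ext x
    constructor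
    · intro hx
      exact hN hx
    · intro hx
      have h2 : e x ∈ N.map e.toMonoidHom := by rw [h1]; exact hx
      obtain ⟨n, hn', h3⟩ := h2
      have h4 : n = x := e.injective h3
      rw [← h4]; exact hn'

theorem index_comap {L : Type*} [Group L] (e : L ≃* K) :
    (centralizer ({e.symm z} : Set L)).index = (centralizer ({z} : Set K)).index := by
  have h1 : centralizer ({e.symm z} : Set L) = (centralizer ({z} : Set K)).comap e.toMonoidHom := by
    ext x
    rw [mem_comap, mem_centralizer_singleton_iff, mem_centralizer_singleton_iff]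
    show x * e.symm z = e.symm z * x ↔ e x * z = z * e x
    constructor
    · intro h
      have := congrArg e h
      rwa [map_mul, map_mul, e.apply_symm_apply] at this
    · intro h
      apply e.injective
      rw [map_mul, map_mul, e.apply_symm_apply]
      exact h
  rw [h1]
  exact index_comap_of_surjective _ e.surjective

variable {G : Type u} [Group G] [Finite G] {L : Subgroup G} {x : G}

/-- **the outer elements** -/
theorem outrow_of_dat [Finite K] (D : Dat Q z n₀ x₀) (e : L ≃* K) (C : Ctx 2 L x) (hx : x ∉ L)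
    (h2 : 2 ∣ orderOf x) : False := by
  have hLn := C.normal
  obtain ⟨y, hxy, Cy, hyz, hcm⟩ := H757.OutLarge.exists_large C h2 (large_comap D.large e) (irr_comap D.irr e)
    (by
      refine ⟨e.symm x₀, ?_, fun h => ?_, fun h => ?_⟩
      · show e (e.symm x₀) ∈ Q
        rw [e.apply_symm_apply]; exact D.hx₀
      · exact D.hx₀1 (by rw [← e.apply_symm_apply x₀, h, map_one])
      · exact D.hx₀z (e.symm.injective h))
    (by rw [index_comap e]; exact D.odd)
  have hyL : y ∉ L := by
    intro h
    apply hx
    obtain ⟨g, hg⟩ := isConj_iff.1 hxy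
    have h1 := hLn.conj_mem y h g⁻¹
    rwa [← hg, show g⁻¹ * (g * x * g⁻¹) * g⁻¹⁻¹ = x by group] at h1
  let α : MulAut L := MulAut.conjNormal y⁻¹
  have hαv : ∀ s : L, ((α s : L) : G) = y⁻¹ * s * y := fun s => by
    have := MulAut.conjNormal_apply (H := L) y⁻¹ s
    rw [inv_inv] at this
    exact this
  let β : MulAut K := (e.symm.trans α).trans e
  have hβ : ∀ k, β k = e (α (e.symm k)) := fun k => rfl
  obtain ⟨q, hq, hqe⟩ := AutLarge.eq_conj_of_comm D.large D.irr D.perf D.hin D.hnz D.gen D.hx₀ D.hx₀1 D.hx₀z D.cen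
    β (by
      rw [hβ]
      have h1 : α (e.symm z) = e.symm z := by
        apply Subtype.ext
        rw [hαv]
        calc y⁻¹ * (e.symm z : L) * y = y⁻¹ * ((e.symm z : L) * y) := by group
          _ = y⁻¹ * (y * (e.symm z : L)) := by rw [hyz]
          _ = _ := by group
      rw [h1, e.apply_symm_apply])
    (by
      intro c hc
      obtain ⟨r, hr, hrc⟩ := hcm (e.symm c)⁻¹ (by
        have h1 : e.symm c * e.symm z = e.symm z * e.symm c := by rw [← map_mul, hc, map_mul]
        rw [inv_mul_eq_iff_eq_mul, ← mul_assoc, h1, mul_inv_cancel_right])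
      have h3 : α (e.symm c) * (e.symm c)⁻¹ = r := by
        apply Subtype.ext
        rw [coe_mul, hαv]
        have h4 : (r : G) = cm y (((e.symm c)⁻¹ : L) : G) := hrc
        rw [h4, cm_eq, coe_inv]
        group
      rw [hβ]
      have h5 : e (α (e.symm c)) * c⁻¹ = e (α (e.symm c) * (e.symm c)⁻¹) := by
        rw [map_mul, map_inv, e.apply_symm_apply]
      rw [h5, h3]
      exact hr)
  apply hyL
  have h3 : y * ((e.symm q : L) : G) ∈ centralizer (L : Set G) := by
    rw [mem_centralizer_iff]
    intro l hl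
    have h4 := hαv ⟨l, hl⟩
    have h5 : α ⟨l, hl⟩ = e.symm q * ⟨l, hl⟩ * (e.symm q)⁻¹ := by
      apply e.injective
      have h6 := hβ (e ⟨l, hl⟩)
      rw [e.symm_apply_apply] at h6
      rw [← h6, hqe, MulAut.conj_apply, map_mul, map_mul, map_inv, e.apply_symm_apply]
    rw [h5, coe_mul, coe_mul, coe_inv] at h4
    have h7 : ((e.symm q : L) : G) * l * ((e.symm q : L) : G)⁻¹ = y⁻¹ * l * y := h4
    calc l * (y * ((e.symm q : L) : G)) = y * (y⁻¹ * l * y) * ((e.symm q : L) : G) := by group
      _ = y * ((e.symm q : L) : G) * l := by rw [← h7]; group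
  rw [C.cent, mem_bot] at h3
  have h4 : y = ((e.symm q : L) : G)⁻¹ := eq_inv_of_mul_eq_one_left h3
  rw [h4]
  exact inv_mem (e.symm q : L).2

end Cfsg.Agent.H566.OutR.Large
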