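import Cfsg.Agent.H566.OutR.Large
import Cfsg.Agent.KFacts.SuzOut

/-!
# S3842, S4094, S4095: outer elements, `Suz`
-/

set_option autoImplicit false
set_option maxRecDepth 100000

namespace Cfsg.Agent.H566.OutR.Suz

open Cfsg.Spor Cfsg.Agent.SuzThree.CentA Cfsg.Agent.SuzThree.QZero Cfsg.Agent.KFacts.Codes Cfsg.Agent.KFacts.Orbits
  Cfsg.Agent.KFacts.SuzR Cfsg.Agent.KFacts.SuzSheet Cfsg.Agent.KFacts.SuzLarge Cfsg.Agent.KFacts.AutLarge
  Cfsg.Agent.KFacts.SuzOut Cfsg.Agent.H509.TwoFrame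

universe u

theorem comm_gg (k : ℕ) : gg k * z0 = z0 * gg k := mem_C1.1 (gg_mem k)

theorem C_inj {c d : ℕ} (hc : c < 128) (hd : d < 128) (h : C c = C d) : c = d :=
  cod_injOn rels tri nondeg z_ne hc hd h

theorem C_mul_z {c : ℕ} : C c * z0 = C (mulc BB 6 c 64) := by
  rw [← C64, C, C, cod_mul rels tri]

theorem mulc_lt' {c d : ℕ} (hc : c < 128) (hd : d < 128) : mulc BB 6 c d < 128 :=
  KFacts.AutChain.mulc_lt (B := BB) (n := 6) hc hd

theorem AA_lt : ∀ c < 128, ∀ k < 5, AA k c < 128 := by decide +kernel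

/-- the fixed points of the stabiliser -/
theorem chk : ∀ y < 128, (∀ k ∈ [1, 2, 3, 4], AA k y % 64 = y % 64) → y % 64 = 0 ∨ y % 64 = 1 := by decide +kernel

theorem chk1 : ∀ k ∈ [1, 2, 3, 4], AA k 1 % 64 = 1 := by decide +kernel

theorem mod_mulc : ∀ c < 128, mulc BB 6 c 64 % 64 = c % 64 := by decide +kernel

/-- reduction modulo `z` -/
theorem mod_of_eqz {c d : ℕ} (hc : c < 128) (hd : d < 128) (h : Eqz z0 (C c) (C d)) : c % 64 = d % 64 := by
  rcases h with h | h
  · rw [C_inj hc hd h]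
  · rw [C_mul_z] at h
    rw [C_inj hc (mulc_lt' hd (by norm_num)) h, mod_mulc d hd]

theorem dat : Large.Dat Q0 z0 n0 (C 1) where
  large := large
  irr := irr'
  perf := perf
  hin := n0_in
  hnz := n0_ne
  gen := gen
  hx₀ := C_mem 1
  hx₀1 := by
    rw [C1', ← n0_conj]
    intro h
    apply z_ne
    have h1 : n0⁻¹ * (n0 * z0 * n0⁻¹) * n0 = n0⁻¹ * 1 * n0 := by rw [h]
    have h2 : n0⁻¹ * (n0 * z0 * n0⁻¹) * n0 = z0 := by group
    rw [h2] at h1
    rw [h1]; group
  hx₀z := by rw [C1', ← n0_conj]; exact n0_ne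
  cen := by
    intro y hy h
    rw [Q0_eq] at hy
    obtain ⟨c, hc, h1⟩ := (mem_RG rels tri).1 hy
    have hyc : y = C c := h1.symm
    subst hyc
    have hc' : c < 128 := hc
    have key : ∀ k ∈ [1, 2, 3, 4], AA k c % 64 = c % 64 := by
      intro k hk
      have hk5 : k < 5 := by
        simp only [List.mem_cons, List.not_mem_nil, or_false] at hk
        omega
      have h2 := h (gg k) (comm_gg k) (by
        rw [conj_AA]
        exact KFacts.AutChain.eqz_cod rels (n := 6) (chk1 k hk))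
      rw [conj_AA] at h2
      exact mod_of_eqz (AA_lt c hc' k hk5) hc' h2
    rcases chk c hc' key with h2 | h2
    · left
      have h3 : Eqz z0 (C c) (C 0) := KFacts.AutChain.eqz_cod rels (n := 6) h2
      rwa [show C 0 = 1 from cod_zero] at h3
    · right
      exact KFacts.AutChain.eqz_cod rels (n := 6) h2
  odd := odd_index

theorem outrow_Suz {G : Type u} [Group G] [Finite G] {L : Subgroup G} (h : Cfsg.Spor.IsoSuz L) {x : G}
    (C : Ctx 2 L x) (hx : x ∉ L) (h2 : 2 ∣ orderOf x) : False := by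
  obtain ⟨e⟩ := h
  have : Finite Cfsg.Spor.Suz := Finite.of_equiv _ e.toEquiv
  exact Large.outrow_of_dat dat e C hx h2

end Cfsg.Agent.H566.OutR.Suz
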